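import Mathlib
import Cfsg.Agent.Lib.Helper70.HH.S3786Defs

/-!
# S3786, package (E') `EC` (helper21)

Theorem EC over an arbitrary field of characteristic `p`, by base change to the algebraic
closure from Theorem EC over algebraically closed fields (`ECalg`).
-/

set_option autoImplicit false

namespace Cfsg.Agent.Lib.Helper21.HH86

open Module Cfsg.Agent.Lib.Helper70.HH86

universe u v w

/-- (E') Theorem EC over an arbitrary field of characteristic `p`, from Theorem EC over
algebraically closed fields, by base change to the algebraic closure. -/
theorem ec (hE : ECalg.{u, max v w, w}) : EC.{u, v, w} := by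
  intro p _ F _ _ H _ _ V _ _ _ ρ T n hp2 hsol hcore hinj hn hT hnz
  classical
  have : CharP (AlgebraicClosure F) p :=
    charP_of_injective_algebraMap (algebraMap F (AlgebraicClosure F)).injective p
  have hbc : Function.Injective (Module.End.baseChangeHom F (AlgebraicClosure F) V) :=
    LinearMap.baseChangeHom_injective F V (AlgebraicClosure F)
  let ρ' : Representation (AlgebraicClosure F) H (TensorProduct F (AlgebraicClosure F) V) :=
    ((Module.End.baseChangeHom F (AlgebraicClosure F) V : Module.End F V →ₐ[F] _) :
      Module.End F V →* _).comp ρ
  have hρapp : ∀ g : H, ρ' g = Module.End.baseChangeHom F (AlgebraicClosure F) V (ρ g) :=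
    fun g => rfl
  have hρinj : Function.Injective ρ' := by
    intro a b hab
    rw [hρapp, hρapp] at hab
    exact hinj (hbc hab)
  have hsub : ∀ g : H, ρ' g - 1 =
      Module.End.baseChangeHom F (AlgebraicClosure F) V (ρ g - 1) := by
    intro g
    rw [hρapp, map_sub, map_one]
  refine hE (p := p) (F := AlgebraicClosure F) (H := H)
    (V := TensorProduct F (AlgebraicClosure F) V) ρ' T n hp2 hsol hcore hρinj hn hT ?_
  intro t ht
  rw [hsub, ← map_pow, hnz t ht, map_zero]

end Cfsg.Agent.Lib.Helper21.HH86
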