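import Mathlib
import Cfsg.Agent.Lib.Helper70.HH.S3786Defs
import Cfsg.Agent.Lib.Helper63.HallHigman
import Cfsg.Agent.Lib.Helper69.PSolvable

/-!
# S3786, package (M3) `ModB` (helper21)

If every `p`-element of `H` has vanishing norm `(ρ g - 1) ^ (p ^ n - 1) = 0`, then
`h ^ p ^ (n - 1) ∈ O_{p',p}(H)` for every `p`-element `h` (from `EC` and `UpperContra`).
-/

set_option autoImplicit false

namespace Cfsg.Agent.Lib.Helper21.HH86

open Module Cfsg.Agent.Lib.Helper70.HH86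

universe u v w

/-- (M3) from (E') and (L2). -/
theorem modB (hEC : EC.{u, v, w}) (hU : UpperContra.{u}) : ModB.{u, v, w} := by
  intro p _ F _ _ H _ _ V _ _ _ ρ n hp2 hsol hcore hinj hn hnz h hh
  classical
  by_contra hcon
  have hp : p.Prime := Fact.out
  -- every `p`-element has order dividing `p ^ n`
  have hpow : ∀ g : H, (∃ k : ℕ, g ^ p ^ k = 1) → g ^ p ^ n = 1 := by
    intro g hg
    have h1 := hnz g hg
    have h2 : (ρ g - 1) ^ (p ^ n) = 0 := by
      have h' : p ^ n = (p ^ n - 1) + 1 := (Nat.sub_add_cancel (Nat.one_le_pow _ _ hp.pos)).symm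
      rw [h', pow_succ, h1, zero_mul]
    have h3 : (ρ g - 1) ^ (p ^ n) = (ρ g) ^ (p ^ n) - 1 := by
      have hpoly : ((Polynomial.X : Polynomial F) - 1) ^ (p ^ n) = Polynomial.X ^ (p ^ n) - 1 := by
        rw [sub_pow_char_pow, one_pow]
      have := congrArg (Polynomial.aeval (ρ g)) hpoly
      simpa using this
    rw [h3, sub_eq_zero, ← map_pow] at h2
    exact hinj (h2.trans (map_one ρ).symm)
  -- a Sylow `p`-subgroup containing `h`
  have hzp : IsPGroup p (Subgroup.zpowers h) := by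
    obtain ⟨k, hk⟩ := hh
    rintro ⟨g, hg⟩
    obtain ⟨z, rfl⟩ := Subgroup.mem_zpowers_iff.1 hg
    refine ⟨k, Subtype.ext ?_⟩
    show (h ^ z) ^ p ^ k = 1
    rw [← zpow_natCast, ← zpow_mul, mul_comm, zpow_mul, zpow_natCast, hk, one_zpow]
  obtain ⟨T, hT⟩ := hzp.exists_le_sylow
  have hhT : h ∈ (T : Subgroup H) := hT (Subgroup.mem_zpowers h)
  have hTel : ∀ t ∈ (T : Subgroup H), ∃ k : ℕ, t ^ p ^ k = 1 := by
    intro t ht
    obtain ⟨k, hk⟩ := T.isPGroup' ⟨t, ht⟩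
    exact ⟨k, by simpa using congrArg Subtype.val hk⟩
  have hcomm := hEC (p := p) ρ (T : Subgroup H) n hp2 hsol hcore hinj hn T.isPGroup'
    (fun t ht => hnz t (hTel t ht))
  -- the quotient by `O_{p'}(H)`
  have hsurj : Function.Surjective (QuotientGroup.mk' (Cfsg.pPrimeCore p H)) :=
    QuotientGroup.mk'_surjective _
  have hsolq : Cfsg.IsPSolvable p (H ⧸ Cfsg.pPrimeCore p H) :=
    Cfsg.Agent.Lib.Helper69.isPSolvable_of_surj p (QuotientGroup.mk' (Cfsg.pPrimeCore p H))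
      hsurj hsol
  have hpc : Cfsg.pPrimeCore p (H ⧸ Cfsg.pPrimeCore p H) = ⊥ :=
    Cfsg.Agent.Lib.Helper63.pPrimeCore_quotient_eq_bot p H
  refine hU (p := p) (G := H ⧸ Cfsg.pPrimeCore p H) hp2 hsolq hpc
    (QuotientGroup.mk h) n hn ?_ ?_ ?_
  · rw [← QuotientGroup.mk_pow, hpow h hh]; rfl
  · rw [← QuotientGroup.mk_pow]; exact hcon
  · intro ũ hũ
    have h1 := Cfsg.Agent.Lib.Helper63.pCore_le_sylow' p (T.mapSurjective hsurj) hũ
    rw [Sylow.coe_mapSurjective] at h1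
    obtain ⟨u, hu, rfl⟩ := Subgroup.mem_map.1 h1
    have h2 := hcomm h hhT (u * h) (Subgroup.mul_mem _ hu hhT)
    have h3 := congrArg (QuotientGroup.mk' (Cfsg.pPrimeCore p H)) h2
    simpa using h3

end Cfsg.Agent.Lib.Helper21.HH86
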