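import Mathlib
import Cfsg.Agent.Lib.Helper70.HH.S3786Defs2

/-!
# S3786, package (C5) `LemQ` (helper21)

Lemma Q: in a finite `p`-group `D` (`p` odd) acting on a finite abelian `p'`-group `X`, with `z`
central in the action, fixed point free and of order `p`, two elements `y₁, y₂` satisfying
`(y - z ^ i)(y - 1) = 0` on `X` commute in their action on `X`.

The proof is by induction on `|D|`; the inductive step is a Peirce decomposition argument in
the ring `AddMonoid.End (Additive X)`.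
-/

set_option autoImplicit false
set_option linter.unusedSimpArgs false
set_option linter.unusedVariables false

namespace Cfsg.Agent.Lib.Helper21.HH86

open Cfsg.Agent.Lib.Helper70.HH86

universe u v

section RingCore

variable {R : Type*} [Ring R]

/-- The Peirce computation: two idempotents `e`, `f` such that `e` commutes with its conjugate
under `1 + (u - 1) f` commute (`u` central, `u`, `u - 1`, `u + 1` cancellable). -/
theorem peirce_core (e f u : R) (he : e * e = e) (hf : f * f = f)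
    (hue : e * u = u * e) (huf : f * u = u * f)
    (hc : ∀ r : R, (u - 1) * r = 0 → r = 0) (hc' : ∀ r : R, (u + 1) * r = 0 → r = 0)
    (hu : ∀ r : R, u * r = 0 → r = 0)
    (h : e * (1 + (u - 1) * f) * e * (u - (u - 1) * f) =
      (1 + (u - 1) * f) * e * (u - (u - 1) * f) * e) : e * f = f * e := by
  have he' : ∀ r : R, e * (e * r) = e * r := fun r => by rw [← mul_assoc, he]
  have hf' : ∀ r : R, f * (f * r) = f * r := fun r => by rw [← mul_assoc, hf]
  have hue' : ∀ r : R, e * (u * r) = u * (e * r) := fun r => by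
    rw [← mul_assoc, hue, mul_assoc]
  have huf' : ∀ r : R, f * (u * r) = u * (f * r) := fun r => by
    rw [← mul_assoc, huf, mul_assoc]
  -- `A = u B`
  have hAB : e * f - e * (f * (e * f)) - e * (f * e) + f * (e * (f * e)) =
      u * (e * (f * e) - e * (f * (e * f)) - f * e + f * (e * (f * e))) := by
    have h0 : (u - 1) * (u * (e * (f * e) - e * (f * (e * f)) - f * e + f * (e * (f * e))) -
        (e * f - e * (f * (e * f)) - e * (f * e) + f * (e * (f * e)))) = 0 := by
      have h1 : (u - 1) * (u * (e * (f * e) - e * (f * (e * f)) - f * e + f * (e * (f * e))) -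
          (e * f - e * (f * (e * f)) - e * (f * e) + f * (e * (f * e)))) =
          e * (1 + (u - 1) * f) * e * (u - (u - 1) * f) -
          (1 + (u - 1) * f) * e * (u - (u - 1) * f) * e := by
        simp only [mul_add, add_mul, mul_sub, sub_mul, mul_one, one_mul, mul_assoc, he, he', hf,
          hf', hue, hue', huf, huf']
        abel
      rw [h1, h, sub_self]
    exact (sub_eq_zero.1 (hc _ h0)).symm
  -- `α² = α`
  have h1 : f * (e * (f * (e * f))) = f * (e * f) := by
    have h2 := congrArg (fun r => f * r * f) hAB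
    simp only [mul_add, add_mul, mul_sub, sub_mul, mul_one, one_mul, mul_assoc, he, he', hf,
      hf', hue, hue', huf, huf'] at h2
    have h3 : (u + 1) * (f * (e * f) - f * (e * (f * (e * f)))) = 0 := by
      simp only [mul_add, add_mul, mul_sub, sub_mul, mul_one, one_mul, mul_assoc]
      linear_combination (norm := abel) h2
    exact (sub_eq_zero.1 (hc' _ h3)).symm
  have h1' : ∀ r : R, f * (e * (f * (e * (f * r)))) = f * (e * (f * r)) := fun r => by
    have := congrArg (fun s => s * r) h1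
    simpa only [mul_assoc] using this
  -- `2 α β = β`
  have h2 : f * (e * (f * e)) + f * (e * (f * e)) = f * e + f * (e * f) := by
    have h3 := congrArg (fun r => f * r * (1 - f)) hAB
    simp only [mul_add, add_mul, mul_sub, sub_mul, mul_one, one_mul, mul_assoc, he, he', hf,
      hf', hue, hue', huf, huf', h1, h1'] at h3
    have h4 : u * (f * (e * (f * e)) + f * (e * (f * e)) - (f * e + f * (e * f))) = 0 := by
      simp only [mul_add, add_mul, mul_sub, sub_mul, mul_one, one_mul, mul_assoc]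
      linear_combination (norm := abel) -h3
    exact sub_eq_zero.1 (hu _ h4)
  -- `2 γ α = γ`
  have h3 : e * (f * (e * f)) + e * (f * (e * f)) = e * f + f * (e * f) := by
    have h4 := congrArg (fun r => (1 - f) * r * f) hAB
    simp only [mul_add, add_mul, mul_sub, sub_mul, mul_one, one_mul, mul_assoc, he, he', hf,
      hf', hue, hue', huf, huf', h1, h1'] at h4
    linear_combination (norm := abel) -h4
  -- `β = 0`
  have h4 : f * (e * (f * e)) = f * (e * f) := by
    have h5 := congrArg (fun r => f * (e * f) * r) h2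
    simp only [mul_add, add_mul, mul_sub, sub_mul, mul_one, one_mul, mul_assoc, he, he', hf,
      hf', hue, hue', huf, huf', h1, h1'] at h5
    exact add_left_cancel h5
  have h5 : f * e = f * (e * f) := by
    rw [h4] at h2
    exact (add_right_cancel h2).symm
  -- `γ = 0`
  have h6 : e * (f * (e * f)) = f * (e * f) := by
    have h7 := congrArg (fun r => r * (f * (e * f))) h3
    simp only [mul_add, add_mul, mul_sub, sub_mul, mul_one, one_mul, mul_assoc, he, he', hf,
      hf', hue, hue', huf, huf', h1, h1'] at h7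
    exact add_left_cancel h7
  have h7 : e * f = f * (e * f) := by
    rw [h6] at h3
    exact (add_right_cancel h3).symm
  rw [h7, h5]

theorem comm_of_inv {c d r : R} (hcd : c * d = 1) (hdc : d * c = 1) (h : Commute r c) :
    Commute r d := by
  show r * d = d * r
  calc r * d = d * c * (r * d) := by rw [hdc, one_mul]
    _ = d * (c * r) * d := by simp only [mul_assoc]
    _ = d * (r * c) * d := by rw [h.eq]
    _ = d * r * (c * d) := by simp only [mul_assoc]
    _ = d * r := by rw [hcd, mul_one]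

theorem comm_sub_one {a b : R} (h : Commute a b) : Commute (a - 1) (b - 1) :=
  (h.sub_left (Commute.one_left _)).sub_right (Commute.one_right _)

theorem step_dag (n A b w u : R) (hbw : b * u = w) (hnu : n * u = u * n)
    (hcomm : n * (A * n * b) = A * n * b * n) : n * (A * (n * w)) = A * (n * (w * n)) := by
  subst hbw
  calc n * (A * (n * (b * u))) = n * (A * n * b) * u := by simp only [mul_assoc]
    _ = A * n * b * n * u := by rw [hcomm]
    _ = A * n * b * (n * u) := by simp only [mul_assoc]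
    _ = A * n * b * (u * n) := by rw [hnu]
    _ = A * (n * (b * u * n)) := by simp only [mul_assoc]

theorem step_e (n A w d : R) (hnd : n * d = d * n) (hAd : A * d = d * A) (hwd : w * d = d * w)
    (h : n * (A * (n * w)) = A * (n * (w * n))) :
    d * n * A * (d * n) * w = A * (d * n) * w * (d * n) := by
  have hnd' : ∀ r : R, n * (d * r) = d * (n * r) := fun r => by rw [← mul_assoc, hnd, mul_assoc]
  have hAd' : ∀ r : R, A * (d * r) = d * (A * r) := fun r => by rw [← mul_assoc, hAd, mul_assoc]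
  have hwd' : ∀ r : R, w * (d * r) = d * (w * r) := fun r => by rw [← mul_assoc, hwd, mul_assoc]
  simp only [mul_assoc, hnd, hnd', hAd, hAd', hwd, hwd']
  rw [h]

/-- The ring-theoretic inductive step of Lemma Q. -/
theorem ring_step (n m b₂ c₁ c₂ d₁ d₂ : R)
    (hab : (1 + m) * b₂ = 1) (hba : b₂ * (1 + m) = 1)
    (h11 : Commute n c₁) (h12 : Commute m c₁) (h21 : Commute n c₂) (h22 : Commute m c₂)
    (hcc : Commute c₁ c₂)
    (hd₁ : c₁ * d₁ = 1) (hd₁' : d₁ * c₁ = 1) (hd₂ : c₂ * d₂ = 1) (hd₂' : d₂ * c₂ = 1)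
    (hc' : ∀ r : R, (c₂ + 1 + 1) * r = 0 → r = 0) (hu : ∀ r : R, (c₂ + 1) * r = 0 → r = 0)
    (hq₁ : n * n = c₁ * n) (hq₂ : m * m = c₂ * m)
    (hcomm : n * ((1 + m) * n * b₂) = (1 + m) * n * b₂ * n) : n * m = m * n := by
  have hnd₁ : Commute n d₁ := comm_of_inv hd₁ hd₁' h11
  have hmd₁ : Commute m d₁ := comm_of_inv hd₁ hd₁' h12
  have hnd₂ : Commute n d₂ := comm_of_inv hd₂ hd₂' h21
  have hmd₂ : Commute m d₂ := comm_of_inv hd₂ hd₂' h22
  have hc₂d₁ : Commute c₂ d₁ := comm_of_inv hd₁ hd₁' hcc.symm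
  have hc₁d₂ : Commute c₁ d₂ := comm_of_inv hd₂ hd₂' hcc
  have hd₂c₂ : Commute d₂ c₂ := by
    show d₂ * c₂ = c₂ * d₂
    rw [hd₂, hd₂']
  have he : d₁ * n * (d₁ * n) = d₁ * n := by
    calc d₁ * n * (d₁ * n) = d₁ * (n * d₁) * n := by simp only [mul_assoc]
      _ = d₁ * (d₁ * n) * n := by rw [hnd₁.eq]
      _ = d₁ * d₁ * (n * n) := by simp only [mul_assoc]
      _ = d₁ * d₁ * (c₁ * n) := by rw [hq₁]
      _ = d₁ * (d₁ * c₁) * n := by simp only [mul_assoc]
      _ = d₁ * n := by rw [hd₁', mul_one]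
  have hf : d₂ * m * (d₂ * m) = d₂ * m := by
    calc d₂ * m * (d₂ * m) = d₂ * (m * d₂) * m := by simp only [mul_assoc]
      _ = d₂ * (d₂ * m) * m := by rw [hmd₂.eq]
      _ = d₂ * d₂ * (m * m) := by simp only [mul_assoc]
      _ = d₂ * d₂ * (c₂ * m) := by rw [hq₂]
      _ = d₂ * (d₂ * c₂) * m := by simp only [mul_assoc]
      _ = d₂ * m := by rw [hd₂', mul_one]
  have hc₂f : c₂ * (d₂ * m) = m := by rw [← mul_assoc, hd₂, one_mul]
  have hc₁e : c₁ * (d₁ * n) = n := by rw [← mul_assoc, hd₁, one_mul]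
  have hue : Commute (d₁ * n) (c₂ + 1) :=
    (hc₂d₁.symm.mul_left h21).add_right (Commute.one_right _)
  have huf : Commute (d₂ * m) (c₂ + 1) :=
    (hd₂c₂.mul_left h22).add_right (Commute.one_right _)
  have hw : (1 + m) * (c₂ + 1 - m) = c₂ + 1 := by
    have h0 : (1 + m) * (c₂ + 1 - m) = c₂ + 1 + (m * c₂ - m * m) := by noncomm_ring
    rw [h0, hq₂, h22.eq, sub_self, add_zero]
  have hbw : b₂ * (c₂ + 1) = c₂ + 1 - m := by
    calc b₂ * (c₂ + 1) = b₂ * ((1 + m) * (c₂ + 1 - m)) := by rw [hw]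
      _ = c₂ + 1 - m := by rw [← mul_assoc, hba, one_mul]
  have hnu : n * (c₂ + 1) = (c₂ + 1) * n := (h21.add_right (Commute.one_right n)).eq
  have hdag := step_dag n (1 + m) b₂ (c₂ + 1 - m) (c₂ + 1) hbw hnu hcomm
  have hAd : (1 + m) * d₁ = d₁ * (1 + m) := ((Commute.one_left d₁).add_left hmd₁).eq
  have hwd : (c₂ + 1 - m) * d₁ = d₁ * (c₂ + 1 - m) :=
    ((hc₂d₁.add_left (Commute.one_left d₁)).sub_left hmd₁).eq
  have hE := step_e n (1 + m) (c₂ + 1 - m) d₁ hnd₁.eq hAd hwd hdag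
  have hu1 : c₂ + 1 - 1 = c₂ := add_sub_cancel_right c₂ 1
  have hcore : d₁ * n * (d₂ * m) = d₂ * m * (d₁ * n) := by
    refine peirce_core (d₁ * n) (d₂ * m) (c₂ + 1) he hf hue.eq huf.eq ?_ hc' hu ?_
    · intro r hr
      rw [hu1] at hr
      calc r = d₂ * (c₂ * r) := by rw [← mul_assoc, hd₂', one_mul]
        _ = 0 := by rw [hr, mul_zero]
    · rw [hu1, hc₂f]
      exact hE
  have hef : Commute (d₁ * n) (d₂ * m) := hcore
  have h1 : Commute c₁ (c₂ * (d₂ * m)) := hcc.mul_right (hc₁d₂.mul_right h12.symm)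
  have h2 : Commute (d₁ * n) (c₂ * (d₂ * m)) := (hc₂d₁.symm.mul_left h21).mul_right hef
  have h3 : Commute (c₁ * (d₁ * n)) (c₂ * (d₂ * m)) := h1.mul_left h2
  rw [hc₁e, hc₂f] at h3
  exact h3.eq

end RingCore

section Grp

variable {X : Type u} [CommGroup X]

/-- The endomorphism of `Additive X` given by an automorphism of `X`. -/
def toEnd : MulAut X →* AddMonoid.End (Additive X) where
  toFun g := MonoidHom.toAdditive g.toMonoidHom
  map_one' := rfl
  map_mul' _ _ := rfl

theorem toEnd_apply (g : MulAut X) (x : Additive X) :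
    toEnd g x = Additive.ofMul (g (Additive.toMul x)) := rfl

theorem toEnd_injective : Function.Injective (toEnd (X := X)) := by
  intro g h hgh
  ext x
  have h1 : toEnd g (Additive.ofMul x) = toEnd h (Additive.ofMul x) := by rw [hgh]
  exact h1

theorem cancel_toEnd (g : MulAut X) (r : AddMonoid.End (Additive X)) (hr : toEnd g * r = 0) :
    r = 0 := by
  apply AddMonoidHom.ext
  intro v
  have h1 : toEnd g (r v) = 0 := DFunLike.congr_fun hr v
  have h2 : g (Additive.toMul (r v)) = 1 := h1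
  have h3 : Additive.toMul (r v) = 1 := (map_eq_one_iff g g.injective).1 h2
  exact h3

theorem sub_one_apply_eq_zero (g : MulAut X) (hg : ∀ x : X, g x = x → x = 1) (w : Additive X)
    (hw : toEnd g w - w = 0) : w = 0 := by
  have h1 : toEnd g w = w := sub_eq_zero.1 hw
  have h2 : g (Additive.toMul w) = Additive.toMul w := h1
  exact hg _ h2

theorem cancel_sub_one (g : MulAut X) (hg : ∀ x : X, g x = x → x = 1)
    (r : AddMonoid.End (Additive X)) (hr : (toEnd g - 1) * r = 0) : r = 0 := by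
  apply AddMonoidHom.ext
  intro v
  have h1 : toEnd g (r v) - r v = 0 := DFunLike.congr_fun hr v
  exact sub_one_apply_eq_zero g hg _ h1

theorem cancel_add_one (g : MulAut X) (hg : ∀ x : X, g (g x) = x → x = 1)
    (r : AddMonoid.End (Additive X)) (hr : (toEnd g + 1) * r = 0) : r = 0 := by
  apply AddMonoidHom.ext
  intro v
  have h1 : toEnd g (r v) + r v = 0 := DFunLike.congr_fun hr v
  have h2 : g (Additive.toMul (r v)) * Additive.toMul (r v) = 1 := h1
  have h3 : g (Additive.toMul (r v)) = (Additive.toMul (r v))⁻¹ := eq_inv_of_mul_eq_one_left h2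
  have h4 : g (g (Additive.toMul (r v))) = Additive.toMul (r v) := by
    rw [h3, map_inv, h3, inv_inv]
  exact hg _ h4

theorem exists_inv_sub_one [Finite X] (g : MulAut X) (hg : ∀ x : X, g x = x → x = 1) :
    ∃ d : AddMonoid.End (Additive X), (toEnd g - 1) * d = 1 ∧ d * (toEnd g - 1) = 1 := by
  obtain ⟨c, hc⟩ : ∃ c : AddMonoid.End (Additive X), c = toEnd g - 1 := ⟨_, rfl⟩
  rw [← hc]
  have hinj : Function.Injective c := by
    refine (injective_iff_map_eq_zero c).2 ?_
    intro v hv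
    rw [hc] at hv
    exact sub_one_apply_eq_zero g hg v hv
  have hbij : Function.Bijective c := ⟨hinj, Finite.surjective_of_injective hinj⟩
  refine ⟨(AddEquiv.ofBijective c hbij).symm.toAddMonoidHom, ?_, ?_⟩
  · apply AddMonoidHom.ext
    intro v
    exact (AddEquiv.ofBijective c hbij).apply_symm_apply v
  · apply AddMonoidHom.ext
    intro v
    exact (AddEquiv.ofBijective c hbij).symm_apply_apply v

theorem quad_toEnd (g h : MulAut X) (hq : ∀ x : X, g (g x * x⁻¹) = h (g x * x⁻¹)) :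
    (toEnd g - 1) * (toEnd g - 1) = (toEnd h - 1) * (toEnd g - 1) := by
  have h0 : (toEnd g - toEnd h) * (toEnd g - 1) = 0 := by
    apply AddMonoidHom.ext
    intro v
    show toEnd g (toEnd g v - v) - toEnd h (toEnd g v - v) = 0
    rw [sub_eq_zero]
    have h1 := hq (Additive.toMul v)
    rw [← div_eq_mul_inv] at h1
    exact h1
  have h1 : (toEnd g - 1) * (toEnd g - 1) - (toEnd h - 1) * (toEnd g - 1) =
      (toEnd g - toEnd h) * (toEnd g - 1) := by
    rw [← sub_mul]
    congr 1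
    abel
  rw [h0] at h1
  exact sub_eq_zero.1 h1

theorem pow_fixed (g : MulAut X) (x : X) (h : g x = x) (k : ℕ) : (g ^ k) x = x := by
  induction k with
  | zero => rfl
  | succ k ih => rw [pow_succ, MulAut.mul_apply, h, ih]

theorem fpf_pow {p : ℕ} [Fact p.Prime] (ζ : MulAut X) (hp : ζ ^ p = 1)
    (hf : ∀ x : X, ζ x = x → x = 1) (i : ℕ) (hi : ¬ p ∣ i) :
    ∀ x : X, (ζ ^ i) x = x → x = 1 := by
  intro x hx
  have hpp : p.Prime := Fact.out
  have hcop : Nat.Coprime i p := ((Nat.Prime.coprime_iff_not_dvd hpp).2 hi).symm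
  obtain ⟨k, -, hk⟩ := Nat.exists_mul_mod_eq_one_of_coprime hcop hpp.one_lt
  have h1 : (ζ ^ i) ^ k = ζ := by
    rw [← pow_mul, ← Nat.div_add_mod (i * k) p, hk, pow_add, pow_mul, hp, one_pow, one_mul,
      pow_one]
  apply hf
  have h2 := pow_fixed (ζ ^ i) x hx k
  rwa [h1] at h2

theorem eq_one_of_sq {p : ℕ} [Fact p.Prime] [Finite X] (hX : (Nat.card X).Coprime p)
    (g : MulAut X) (k : ℕ) (hg : g ^ p ^ k = 1) (h : ∀ x : X, g (g x * x⁻¹) = g x * x⁻¹) :
    g = 1 := by
  have key : ∀ (n : ℕ) (x : X), (g ^ n) x = x * (g x * x⁻¹) ^ n := by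
    intro n x
    induction n with
    | zero => simp
    | succ n ih =>
      rw [pow_succ', MulAut.mul_apply, ih, map_mul, map_pow, h, pow_succ]
      have h0 : g x = x * (g x * x⁻¹) := by
        rw [mul_comm (g x), mul_inv_cancel_left]
      calc g x * (g x * x⁻¹) ^ n = x * (g x * x⁻¹) * (g x * x⁻¹) ^ n := by rw [← h0]
        _ = x * ((g x * x⁻¹) ^ n * (g x * x⁻¹)) := by
          rw [mul_assoc, mul_comm (g x * x⁻¹)]
  ext x
  have h1 := key (p ^ k) x
  rw [hg, MulAut.one_apply] at h1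
  have h2 : (g x * x⁻¹) ^ p ^ k = 1 := by
    have h3 : x * (g x * x⁻¹) ^ p ^ k = x * 1 := by rw [mul_one]; exact h1.symm
    exact mul_left_cancel h3
  have h3 : orderOf (g x * x⁻¹) ∣ p ^ k := orderOf_dvd_of_pow_eq_one h2
  have h4 : orderOf (g x * x⁻¹) ∣ Nat.card X := orderOf_dvd_natCard _
  have h5 : orderOf (g x * x⁻¹) = 1 :=
    (Nat.Coprime.coprime_dvd_left h4 (hX.pow_right k)).eq_one_of_dvd h3
  have h6 : g x * x⁻¹ = 1 := orderOf_eq_one_iff.1 h5
  rw [MulAut.one_apply]
  exact mul_inv_eq_one.1 h6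

end Grp

/-- Lemma Q, by induction on the order of `D`. -/
theorem lemQ_aux {p : ℕ} [Fact p.Prime] {X : Type u} [CommGroup X] [Finite X] (hp2 : p ≠ 2)
    (hX : (Nat.card X).Coprime p) :
    ∀ (N : ℕ) (D : Type v) [Group D] [Finite D], Nat.card D = N →
      ∀ (φ : D →* MulAut X) (z y₁ y₂ : D) (i₁ i₂ : ℕ), IsPGroup p D →
      (∀ d : D, φ z * φ d = φ d * φ z) →
      (∀ x : X, φ z x = x → x = 1) →
      (φ z) ^ p = 1 →
      (∀ x : X, φ y₁ (φ y₁ x * x⁻¹) = (φ z ^ i₁) (φ y₁ x * x⁻¹)) →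
      (∀ x : X, φ y₂ (φ y₂ x * x⁻¹) = (φ z ^ i₂) (φ y₂ x * x⁻¹)) →
      φ y₁ * φ y₂ = φ y₂ * φ y₁ := by
  intro N
  induction N using Nat.strong_induction_on with
  | _ N ih =>
    intro D _ _ hN φ z y₁ y₂ i₁ i₂ hD hzc hzf hzp h1 h2
    have hpp : p.Prime := Fact.out
    -- the case `p ∣ i₁`
    by_cases hi₁ : p ∣ i₁
    · have hu : φ z ^ i₁ = 1 := by
        obtain ⟨m, rfl⟩ := hi₁
        rw [pow_mul, hzp, one_pow]
      obtain ⟨k, hk⟩ := hD y₁
      have h3 : φ y₁ = 1 :=
        eq_one_of_sq hX (φ y₁) k (by rw [← map_pow, hk, map_one])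
          (fun x => by rw [h1 x, hu]; rfl)
      rw [h3, one_mul, mul_one]
    -- the case `p ∣ i₂`
    by_cases hi₂ : p ∣ i₂
    · have hu : φ z ^ i₂ = 1 := by
        obtain ⟨m, rfl⟩ := hi₂
        rw [pow_mul, hzp, one_pow]
      obtain ⟨k, hk⟩ := hD y₂
      have h3 : φ y₂ = 1 :=
        eq_one_of_sq hX (φ y₂) k (by rw [← map_pow, hk, map_one])
          (fun x => by rw [h2 x, hu]; rfl)
      rw [h3, one_mul, mul_one]
    -- reduction to `D = ⟨y₁, y₂, z⟩`
    by_cases hD0 : Subgroup.closure ({y₁, y₂, z} : Set D) = ⊤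
    swap
    · have hlt : Nat.card (Subgroup.closure ({y₁, y₂, z} : Set D)) < N := by
        rw [← hN]
        exact lt_of_le_of_ne (Subgroup.card_le_card_group _)
          (fun h => hD0 (Subgroup.eq_top_of_card_eq _ h))
      have hy₁ : y₁ ∈ Subgroup.closure ({y₁, y₂, z} : Set D) :=
        Subgroup.subset_closure (by simp)
      have hy₂ : y₂ ∈ Subgroup.closure ({y₁, y₂, z} : Set D) :=
        Subgroup.subset_closure (by simp)
      have hz : z ∈ Subgroup.closure ({y₁, y₂, z} : Set D) :=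
        Subgroup.subset_closure (by simp)
      exact ih _ hlt (Subgroup.closure ({y₁, y₂, z} : Set D)) rfl
        (φ.comp (Subgroup.closure ({y₁, y₂, z} : Set D)).subtype) ⟨z, hz⟩ ⟨y₁, hy₁⟩ ⟨y₂, hy₂⟩
        i₁ i₂ (hD.to_subgroup _) (fun d => hzc d) hzf hzp h1 h2
    have hzpow : ∀ (i : ℕ) (d : D), φ z ^ i * φ d = φ d * φ z ^ i := fun i d =>
      ((show Commute (φ z) (φ d) from hzc d).pow_left i).eq
    -- `⟨y₁, z⟩`
    obtain hD1 | ⟨M, hMco, hD1M⟩ :=
      eq_top_or_exists_le_coatom (Subgroup.closure ({y₁, z} : Set D))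
    · have h3 : ∀ d ∈ Subgroup.closure ({y₁, z} : Set D), Commute (φ y₁) (φ d) := by
        intro d hd
        induction hd using Subgroup.closure_induction with
        | mem x hx =>
          rcases hx with rfl | rfl
          · exact Commute.refl _
          · exact (show Commute (φ x) (φ y₁) from hzc y₁).symm
        | one => rw [map_one]; exact Commute.one_right _
        | mul a b _ _ iha ihb => rw [map_mul]; exact iha.mul_right ihb
        | inv a _ iha => rw [map_inv]; exact iha.inv_right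
      exact (h3 y₂ (hD1 ▸ Subgroup.mem_top y₂)).eq
    -- the main case: `⟨y₁, z⟩ ≤ M`, `M` a proper normal subgroup
    haveI : Group.IsNilpotent D := hD.isNilpotent
    have hMn : M.Normal :=
      Subgroup.NormalizerCondition.normal_of_coatom M Group.normalizerCondition_of_isNilpotent hMco
    have hy₁M : y₁ ∈ M := hD1M (Subgroup.subset_closure (by simp))
    have hzM : z ∈ M := hD1M (Subgroup.subset_closure (by simp))
    have hltM : Nat.card M < N := by
      rw [← hN]
      exact lt_of_le_of_ne (Subgroup.card_le_card_group M)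
        (fun h => hMco.1 (Subgroup.eq_top_of_card_eq M h))
    have hyM : y₂ * y₁ * y₂⁻¹ ∈ M := hMn.conj_mem y₁ hy₁M y₂
    have hconj : ∀ x : X, φ (y₂ * y₁ * y₂⁻¹) (φ (y₂ * y₁ * y₂⁻¹) x * x⁻¹) =
        (φ z ^ i₁) (φ (y₂ * y₁ * y₂⁻¹) x * x⁻¹) := by
      intro x
      obtain ⟨x', rfl⟩ : ∃ x', x = φ y₂ x' := ⟨(φ y₂)⁻¹ x, by simp⟩
      have e1 : ∀ w : X, φ (y₂ * y₁ * y₂⁻¹) (φ y₂ w) = φ y₂ (φ y₁ w) := by
        intro w
        rw [map_mul, map_mul, map_inv]
        simp [MulAut.mul_apply]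
      have e2 : φ y₂ (φ y₁ x') * (φ y₂ x')⁻¹ = φ y₂ (φ y₁ x' * x'⁻¹) := by
        rw [map_mul, map_inv]
      rw [e1, e2, e1, h1 x']
      exact DFunLike.congr_fun (hzpow i₁ y₂).symm _
    have hIH : φ y₁ * φ (y₂ * y₁ * y₂⁻¹) = φ (y₂ * y₁ * y₂⁻¹) * φ y₁ :=
      ih _ hltM M rfl (φ.comp M.subtype) ⟨z, hzM⟩ ⟨y₁, hy₁M⟩ ⟨y₂ * y₁ * y₂⁻¹, hyM⟩ i₁ i₁
        (hD.to_subgroup M) (fun d => hzc d) hzf hzp h1 hconj
    -- the ring computation
    have fpf₁ := fpf_pow (φ z) hzp hzf i₁ hi₁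
    have fpf₂ := fpf_pow (φ z) hzp hzf i₂ hi₂
    have fpf₃ : ∀ x : X, (φ z ^ i₂) ((φ z ^ i₂) x) = x → x = 1 := by
      have hi₃ : ¬ p ∣ i₂ + i₂ := by
        intro hdvd
        rw [← two_mul] at hdvd
        rcases (Nat.Prime.dvd_mul hpp).1 hdvd with h | h
        · exact hp2 ((Nat.prime_dvd_prime_iff_eq hpp Nat.prime_two).1 h)
        · exact hi₂ h
      intro x hx
      apply fpf_pow (φ z) hzp hzf (i₂ + i₂) hi₃ x
      rw [pow_add]
      exact hx
    obtain ⟨d₁, hd₁, hd₁'⟩ := exists_inv_sub_one (φ z ^ i₁) fpf₁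
    obtain ⟨d₂, hd₂, hd₂'⟩ := exists_inv_sub_one (φ z ^ i₂) fpf₂
    have hc11 : Commute (toEnd (φ y₁)) (toEnd (φ z ^ i₁)) := by
      show toEnd (φ y₁) * toEnd (φ z ^ i₁) = toEnd (φ z ^ i₁) * toEnd (φ y₁)
      rw [← map_mul, ← map_mul, hzpow]
    have hc12 : Commute (toEnd (φ y₂)) (toEnd (φ z ^ i₁)) := by
      show toEnd (φ y₂) * toEnd (φ z ^ i₁) = toEnd (φ z ^ i₁) * toEnd (φ y₂)
      rw [← map_mul, ← map_mul, hzpow]
    have hc21 : Commute (toEnd (φ y₁)) (toEnd (φ z ^ i₂)) := by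
      show toEnd (φ y₁) * toEnd (φ z ^ i₂) = toEnd (φ z ^ i₂) * toEnd (φ y₁)
      rw [← map_mul, ← map_mul, hzpow]
    have hc22 : Commute (toEnd (φ y₂)) (toEnd (φ z ^ i₂)) := by
      show toEnd (φ y₂) * toEnd (φ z ^ i₂) = toEnd (φ z ^ i₂) * toEnd (φ y₂)
      rw [← map_mul, ← map_mul, hzpow]
    have hcuu : Commute (toEnd (φ z ^ i₁)) (toEnd (φ z ^ i₂)) := by
      show toEnd (φ z ^ i₁) * toEnd (φ z ^ i₂) = toEnd (φ z ^ i₂) * toEnd (φ z ^ i₁)
      rw [← map_mul, ← map_mul, ← pow_add, ← pow_add, add_comm]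
    have hab : toEnd (φ y₂) * toEnd (φ y₂)⁻¹ = 1 := by
      rw [← map_mul, mul_inv_cancel, map_one]
    have hba : toEnd (φ y₂)⁻¹ * toEnd (φ y₂) = 1 := by
      rw [← map_mul, inv_mul_cancel, map_one]
    have hone : (1 : AddMonoid.End (Additive X)) + (toEnd (φ y₂) - 1) = toEnd (φ y₂) :=
      add_sub_cancel 1 _
    have hu2 : toEnd (φ z ^ i₂) - 1 + 1 = toEnd (φ z ^ i₂) := sub_add_cancel _ 1
    have hct : Commute (toEnd (φ y₁)) (toEnd (φ y₂) * toEnd (φ y₁) * toEnd (φ y₂)⁻¹) := by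
      have e : toEnd (φ y₂) * toEnd (φ y₁) * toEnd (φ y₂)⁻¹ = toEnd (φ (y₂ * y₁ * y₂⁻¹)) := by
        rw [map_mul φ, map_mul φ, map_inv φ, map_mul toEnd, map_mul toEnd]
      rw [e]
      show toEnd (φ y₁) * toEnd (φ (y₂ * y₁ * y₂⁻¹)) =
        toEnd (φ (y₂ * y₁ * y₂⁻¹)) * toEnd (φ y₁)
      rw [← map_mul toEnd, ← map_mul toEnd, hIH]
    have hnm := ring_step (toEnd (φ y₁) - 1) (toEnd (φ y₂) - 1) (toEnd (φ y₂)⁻¹)
      (toEnd (φ z ^ i₁) - 1) (toEnd (φ z ^ i₂) - 1) d₁ d₂
      (by rw [hone]; exact hab) (by rw [hone]; exact hba)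
      (comm_sub_one hc11) (comm_sub_one hc12) (comm_sub_one hc21) (comm_sub_one hc22)
      (comm_sub_one hcuu) hd₁ hd₁' hd₂ hd₂'
      (by rw [hu2]; exact cancel_add_one (φ z ^ i₂) fpf₃)
      (by rw [hu2]; exact cancel_toEnd (φ z ^ i₂))
      (quad_toEnd (φ y₁) (φ z ^ i₁) h1) (quad_toEnd (φ y₂) (φ z ^ i₂) h2)
      (by
        rw [hone]
        have ht : toEnd (φ y₂) * (toEnd (φ y₁) - 1) * toEnd (φ y₂)⁻¹ =
            toEnd (φ y₂) * toEnd (φ y₁) * toEnd (φ y₂)⁻¹ - 1 := by
          rw [mul_sub, sub_mul, mul_one, hab]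
        rw [ht]
        exact (comm_sub_one hct).eq)
    have hfin : Commute (toEnd (φ y₁) - 1 + 1) (toEnd (φ y₂) - 1 + 1) :=
      ((show Commute (toEnd (φ y₁) - 1) (toEnd (φ y₂) - 1) from hnm).add_left
        (Commute.one_left _)).add_right (Commute.one_right _)
    rw [sub_add_cancel, sub_add_cancel] at hfin
    apply toEnd_injective
    rw [map_mul, map_mul]
    exact hfin.eq

/-- (C5) Lemma Q. -/
theorem lemQ : LemQ.{u, v} := by
  intro p _ X _ _ D _ _ φ z y₁ y₂ i₁ i₂ hp2 hD hX hzc hzf hzp h1 h2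
  exact lemQ_aux hp2 hX (Nat.card D) D rfl φ z y₁ y₂ i₁ i₂ hD hzc hzf hzp h1 h2

end Cfsg.Agent.Lib.Helper21.HH86
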