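import Mathlib
import Cfsg.Agent.Lib.Helper70.HH.S3786Defs2

/-!
# S3786, package (C6) `LemQS` (helper21)

Lemma Q for an abelian section `M / N` of a group `H` normalized by a `p`-subgroup `D`:
the translation of `LemQ` to the conjugation action of `D` on `M ⧸ N.subgroupOf M`.
-/

set_option autoImplicit false
set_option linter.unusedSimpArgs false
set_option linter.unusedVariables false
set_option linter.unusedSectionVars false

namespace Cfsg.Agent.Lib.Helper21.HH86

open Cfsg.Agent.Lib.Helper70.HH86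

universe u

section Sec

variable {H : Type u} [Group H] (D M N : Subgroup H)

/-- Conjugation by `d ∈ D` on `M`. -/
def cjM (hDM : ∀ d ∈ D, ∀ a ∈ M, d * a * d⁻¹ ∈ M) (d : D) : M →* M where
  toFun a := ⟨(d : H) * a * (d : H)⁻¹, hDM d d.2 a a.2⟩
  map_one' := by
    apply Subtype.ext
    simp
  map_mul' a b := by
    apply Subtype.ext
    simp [mul_assoc]

theorem cjM_coe (hDM : ∀ d ∈ D, ∀ a ∈ M, d * a * d⁻¹ ∈ M) (d : D) (a : M) :
    ((cjM D M hDM d a : M) : H) = (d : H) * a * (d : H)⁻¹ := rfl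

variable [hn : (N.subgroupOf M).Normal]

/-- The endomorphism of `M / N` induced by conjugation by `d ∈ D`. -/
def secFun (hDM : ∀ d ∈ D, ∀ a ∈ M, d * a * d⁻¹ ∈ M) (hDN : ∀ d ∈ D, ∀ a ∈ N, d * a * d⁻¹ ∈ N)
    (d : D) : (M ⧸ N.subgroupOf M) →* (M ⧸ N.subgroupOf M) :=
  QuotientGroup.map (N.subgroupOf M) (N.subgroupOf M) (cjM D M hDM d) (by
    intro x hx
    exact hDN d d.2 _ hx)

theorem secFun_mk (hDM : ∀ d ∈ D, ∀ a ∈ M, d * a * d⁻¹ ∈ M)
    (hDN : ∀ d ∈ D, ∀ a ∈ N, d * a * d⁻¹ ∈ N) (d : D) (a : M) :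
    secFun D M N hDM hDN d (a : M ⧸ N.subgroupOf M) =
      ((cjM D M hDM d a : M) : M ⧸ N.subgroupOf M) := rfl

/-- The action of `D` on the section `M / N` by conjugation. -/
def secAut (hDM : ∀ d ∈ D, ∀ a ∈ M, d * a * d⁻¹ ∈ M) (hDN : ∀ d ∈ D, ∀ a ∈ N, d * a * d⁻¹ ∈ N) :
    D →* MulAut (M ⧸ N.subgroupOf M) where
  toFun d :=
    { toFun := secFun D M N hDM hDN d
      invFun := secFun D M N hDM hDN d⁻¹
      left_inv := by
        intro x
        induction x using QuotientGroup.induction_on with | H y => ?_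
        rw [secFun_mk, secFun_mk]
        congr 1
        apply Subtype.ext
        simp [cjM_coe, mul_assoc]
      right_inv := by
        intro x
        induction x using QuotientGroup.induction_on with | H y => ?_
        rw [secFun_mk, secFun_mk]
        congr 1
        apply Subtype.ext
        simp [cjM_coe, mul_assoc]
      map_mul' := map_mul _ }
  map_one' := by
    apply MulEquiv.ext
    intro x
    induction x using QuotientGroup.induction_on with | H y => ?_
    show secFun D M N hDM hDN 1 (y : M ⧸ N.subgroupOf M) = _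
    rw [secFun_mk]
    congr 1
    apply Subtype.ext
    simp [cjM_coe]
  map_mul' := by
    intro a b
    apply MulEquiv.ext
    intro x
    induction x using QuotientGroup.induction_on with | H y => ?_
    show secFun D M N hDM hDN (a * b) (y : M ⧸ N.subgroupOf M) =
      secFun D M N hDM hDN a (secFun D M N hDM hDN b (y : M ⧸ N.subgroupOf M))
    rw [secFun_mk, secFun_mk, secFun_mk]
    congr 1
    apply Subtype.ext
    simp [cjM_coe, mul_assoc]

theorem secAut_mk (hDM : ∀ d ∈ D, ∀ a ∈ M, d * a * d⁻¹ ∈ M)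
    (hDN : ∀ d ∈ D, ∀ a ∈ N, d * a * d⁻¹ ∈ N) (d : D) (a : M) :
    secAut D M N hDM hDN d (a : M ⧸ N.subgroupOf M) =
      ((cjM D M hDM d a : M) : M ⧸ N.subgroupOf M) := rfl

theorem sec_eq_iff (a b : M) :
    ((a : M ⧸ N.subgroupOf M)) = (b : M ⧸ N.subgroupOf M) ↔ (a : H) * (b : H)⁻¹ ∈ N := by
  rw [QuotientGroup.eq_iff_div_mem, Subgroup.mem_subgroupOf, div_eq_mul_inv]
  simp

end Sec

/-- (C6) Lemma Q for an abelian section `M / N` of a group. -/
theorem lemQS (hQ : LemQ.{u, u}) : LemQS.{u} := by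
  intro p _ H _ _ D M N z y₁ y₂ i₁ i₂ hp2 hD hMc hNM hcomm hDM hDN hz hy₁ hy₂ hzd hzf hzp hr₁ hr₂
  classical
  haveI hn : (N.subgroupOf M).Normal := by
    constructor
    intro n hn g
    rw [Subgroup.mem_subgroupOf] at hn ⊢
    have h1 := hcomm g g.2 n (hNM hn)
    have h2 : ((g * n * g⁻¹ : M) : H) = (g : H) * n * (g : H)⁻¹ * (n : H)⁻¹ * n := by simp
    rw [h2]
    exact N.mul_mem h1 hn
  letI : CommGroup (M ⧸ N.subgroupOf M) :=
    { (inferInstance : Group (M ⧸ N.subgroupOf M)) with
      mul_comm := by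
        intro x y
        induction x using QuotientGroup.induction_on with | H a => ?_
        induction y using QuotientGroup.induction_on with | H b => ?_
        rw [← QuotientGroup.mk_mul, ← QuotientGroup.mk_mul, sec_eq_iff]
        have h1 := hcomm a a.2 b b.2
        convert h1 using 1
        simp [mul_assoc] }
  have hXc : (Nat.card (M ⧸ N.subgroupOf M)).Coprime p :=
    Nat.Coprime.coprime_dvd_left (Subgroup.card_quotient_dvd_card _) hMc
  have key := hQ (p := p) (X := M ⧸ N.subgroupOf M) (D := D) (secAut D M N hDM hDN)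
    ⟨z, hz⟩ ⟨y₁, hy₁⟩ ⟨y₂, hy₂⟩ i₁ i₂ hp2 hD hXc ?_ ?_ ?_ ?_ ?_
  · intro a ha
    have hd : y₁⁻¹ * y₂⁻¹ ∈ D := D.mul_mem (D.inv_mem hy₁) (D.inv_mem hy₂)
    have ha' : y₁⁻¹ * y₂⁻¹ * a * (y₁⁻¹ * y₂⁻¹)⁻¹ ∈ M := hDM _ hd a ha
    have h1 := DFunLike.congr_fun key ((⟨_, ha'⟩ : M) : M ⧸ N.subgroupOf M)
    rw [MulAut.mul_apply, MulAut.mul_apply, secAut_mk, secAut_mk, secAut_mk, secAut_mk,
      sec_eq_iff] at h1
    convert h1 using 1
    simp only [cjM_coe]
    group
  · intro d
    apply MulEquiv.ext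
    intro x
    induction x using QuotientGroup.induction_on with | H a => ?_
    rw [MulAut.mul_apply, MulAut.mul_apply, secAut_mk, secAut_mk, secAut_mk, secAut_mk,
      sec_eq_iff]
    have ha' : (d : H) * (z * a * z⁻¹) * (d : H)⁻¹ ∈ M := hDM d d.2 _ (hDM z hz a a.2)
    have h1 := hzd d d.2 _ ha'
    convert h1 using 1
    simp only [cjM_coe]
    group
  · intro x
    induction x using QuotientGroup.induction_on with | H a => ?_
    intro hx
    rw [secAut_mk, sec_eq_iff] at hx
    have h1 := hzf a a.2 hx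
    exact (QuotientGroup.eq_one_iff a).2 h1
  · rw [← map_pow]
    apply MulEquiv.ext
    intro x
    induction x using QuotientGroup.induction_on with | H a => ?_
    rw [secAut_mk, MulAut.one_apply, sec_eq_iff]
    have h1 := hzp a a.2
    convert h1 using 1
    simp [cjM_coe]
  · intro x
    induction x using QuotientGroup.induction_on with | H a => ?_
    rw [← map_pow, secAut_mk, ← QuotientGroup.mk_inv, ← QuotientGroup.mk_mul, secAut_mk,
      secAut_mk, sec_eq_iff]
    have h1 := hr₁ a a.2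
    convert h1 using 1
    simp [cjM_coe, rel]
    group
  · intro x
    induction x using QuotientGroup.induction_on with | H a => ?_
    rw [← map_pow, secAut_mk, ← QuotientGroup.mk_inv, ← QuotientGroup.mk_mul, secAut_mk,
      secAut_mk, sec_eq_iff]
    have h1 := hr₂ a a.2
    convert h1 using 1
    simp [cjM_coe, rel]
    group

end Cfsg.Agent.Lib.Helper21.HH86
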